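import Cfsg.Agent.Th.E8Recipe
import Cfsg.Agent.H92.F4Code
import Cfsg.Agent.S1027

/-!
# Elements of order `16` in `F₄(2)` and of order `121` in `F₄(11)` (helper500, for helper414, S3480, S3481)

* `run` : the action of a word of root elements on row vectors, by natural numbers modulo `p`;
* `exists_sixteen`, `exists_121`.
-/

set_option autoImplicit false
set_option maxRecDepth 100000

namespace Cfsg.Agent.H500.F4Ord

open Cfsg Cfsg.Lie Cfsg.Lie.ChevalleyDatum Cfsg.Agent.Th.E8Recipe Cfsg.Agent.ChevalleyStructure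
open Cfsg.Agent.ChevalleyStructure.Elts Cfsg.Agent.H92.F4Code
open scoped Matrix

/-- a row vector -/
def tv (p : ℕ) (v : List ℕ) (k : ℕ) : ZMod p := ((v.getD k 0 : ℕ) : ZMod p)

/-- (target, source, coefficient) -/
def recN (p : ℕ) (D : ChevalleyDatum) (r : ℕ) : List (ℕ × ℕ × ℕ) :=
  (recipe D r).map fun a => (a.1, a.2.1, (a.2.2.1 % (p : ℤ)).toNat)

/-- one entry -/
def ent (R : List (ℕ × ℕ × ℕ)) (v : List ℕ) (k : ℕ) : ℕ :=
  (R.map fun a => if k = a.1 then a.2.2 * v.getD a.2.1 0 else 0).sum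

/-- the action of one root element -/
def step (p n : ℕ) (R : List (ℕ × ℕ × ℕ)) (v : List ℕ) : List ℕ :=
  (List.range n).map fun k => (v.getD k 0 + ent R v k) % p

/-- the action of a word -/
def run (p : ℕ) (D : ChevalleyDatum) (rs : List ℕ) (v : List ℕ) : List ℕ :=
  rs.foldl (fun v r => step p (D.rank + D.nroots) (recN p D r) v) v

theorem tv_ent {p : ℕ} [Fact p.Prime] (v : List ℕ) (l : List (ℕ × ℕ × ℤ × ℕ)) (k : ℕ) :
    ((ent (l.map fun a => (a.1, a.2.1, (a.2.2.1 % (p : ℤ)).toNat)) v k : ℕ) : ZMod p) = rsum (tv p v) 1 l k := by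
  induction l with
  | nil => simp [ent, rsum]
  | cons a l ih =>
    rw [rsum_cons, ← ih]
    unfold ent
    rw [List.map_cons, List.map_cons, List.sum_cons, Nat.cast_add]
    congr 1
    by_cases h : k = a.1
    · rw [if_pos h, if_pos h, Nat.cast_mul, one_pow, mul_one]
      have h1 : (((a.2.2.1 % (p : ℤ)).toNat : ℕ) : ZMod p) = ((a.2.2.1 : ℤ) : ZMod p) := by
        have hp : (p : ℤ) ≠ 0 := by
          have := (Fact.out : p.Prime).ne_zero
          exact_mod_cast this
        have h2 : (((a.2.2.1 % (p : ℤ)).toNat : ℕ) : ℤ) = a.2.2.1 % (p : ℤ) := Int.toNat_of_nonneg (Int.emod_nonneg _ hp)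
        have h3 : ((((a.2.2.1 % (p : ℤ)).toNat : ℕ) : ℤ) : ZMod p) = ((a.2.2.1 % (p : ℤ) : ℤ) : ZMod p) := by rw [h2]
        rw [Int.cast_natCast] at h3
        rw [h3]
        exact ((ZMod.intCast_eq_intCast_iff _ _ _).2 (Int.mod_modEq _ _))
      rw [h1]
      rfl
    · rw [if_neg h, if_neg h, Nat.cast_zero]

theorem tv_step {p : ℕ} [Fact p.Prime] {D : ChevalleyDatum} (r : ℕ) (v : List ℕ) {k n : ℕ} (hk : k < n) :
    tv p (step p n (recN p D r) v) k = tv p v k + rsum (tv p v) 1 (recipe D r) k := by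
  unfold tv step
  rw [List.getD_eq_getElem?_getD, List.getElem?_map, List.getElem?_range hk]
  simp only [Option.map_some, Option.getD_some]
  rw [ZMod.natCast_mod, Nat.cast_add]
  congr 1
  exact tv_ent v _ k

theorem vecMul_x {p : ℕ} [Fact p.Prime] {D : ChevalleyDatum} {r : ℕ} (hr : r < D.nroots) (hg : good D r = true)
    (v : List ℕ) :
    (fun a : D.Idx => tv p v (code D a)) ᵥ* D.x (ZMod p) r 1 =
      fun a : D.Idx => tv p (step p (D.rank + D.nroots) (recN p D r) v) (code D a) := by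
  have hx : D.x (ZMod p) r 1 = D.xMat (ZMod p) ⟨r, hr⟩ 1 := dif_pos hr
  rw [hx]
  funext a
  have h := sum_mul_xMat (D := D) (F := ZMod p) (tv p v) 1 ⟨r, hr⟩ hg a
  rw [tv_step r v (code_lt a), ← h]
  rfl

theorem vecMul_wd {p : ℕ} [Fact p.Prime] {D : ChevalleyDatum} (hD : InList D) : ∀ (rs : List ℕ)
    (_ : ∀ r ∈ rs, r < D.nroots ∧ good D r = true) (v : List ℕ),
    (fun a : D.Idx => tv p v (code D a)) ᵥ* ((wd hD (ZMod p) rs : GL D.Idx (ZMod p)) : Matrix D.Idx D.Idx (ZMod p)) =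
      fun a : D.Idx => tv p (run p D rs v) (code D a) := by
  intro rs
  induction rs with
  | nil =>
    intro _ v
    have h : ((wd hD (ZMod p) [] : GL D.Idx (ZMod p)) : Matrix D.Idx D.Idx (ZMod p)) = 1 := rfl
    rw [h, Matrix.vecMul_one]
    rfl
  | cons r rs ih =>
    intro h v
    have h1 : wd hD (ZMod p) (r :: rs) = xG hD r 1 * wd hD (ZMod p) rs := by
      unfold wd
      rw [List.map_cons, List.prod_cons]
    rw [h1, Units.val_mul, ← Matrix.vecMul_vecMul, coe_xG,
      vecMul_x (h r List.mem_cons_self).1 (h r List.mem_cons_self).2, ih fun s hs => h s (List.mem_cons_of_mem _ hs)]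
    rfl

theorem wd_pow {D : ChevalleyDatum} (hD : InList D) {F : Type*} [Field F] (rs : List ℕ) (n : ℕ) :
    wd hD F rs ^ n = wd hD F ((List.replicate n rs).flatten) := by
  induction n with
  | zero => rfl
  | succ n ih =>
    rw [pow_succ', ih, List.replicate_succ, List.flatten_cons, wd_append]

theorem pow_ne_one {p : ℕ} [Fact p.Prime] {D : ChevalleyDatum} (hD : InList D) (rs : List ℕ)
    (h : ∀ r ∈ rs, r < D.nroots ∧ good D r = true) (n : ℕ) (v : List ℕ) {k : ℕ} (hk : k < D.rank + D.nroots)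
    (hne : (run p D ((List.replicate n rs).flatten) v).getD k 0 % p ≠ v.getD k 0 % p) :
    wd hD (ZMod p) rs ^ n ≠ 1 := by
  intro h1
  rw [wd_pow] at h1
  have h2 := vecMul_wd (p := p) hD ((List.replicate n rs).flatten) (fun r hr => by
    obtain ⟨l, hl, hr'⟩ := List.mem_flatten.1 hr
    rw [List.eq_of_mem_replicate hl] at hr'
    exact h r hr') v
  rw [h1, Units.val_one, Matrix.vecMul_one] at h2
  obtain ⟨a, rfl⟩ := exists_code (D := D) hk
  have h3 := congrFun h2 a
  apply hne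
  exact ((ZMod.natCast_eq_natCast_iff _ _ _).1 h3).symm

/-- the four simple roots -/
def sr : List ℕ := [33, 27, 25, 24]

theorem sr_good : ∀ r ∈ sr, r < chevF4.nroots ∧ good chevF4 r = true := by decide +kernel

instance : Fact (Nat.Prime 11) := ⟨by norm_num⟩

theorem run11 : (run 11 chevF4 ((List.replicate 11 sr).flatten) [1]).getD 4 0 % 11 ≠ ([1] : List ℕ).getD 4 0 % 11 := by
  decide +kernel

theorem run2 : (run 2 chevF4 ((List.replicate 8 sr).flatten) [1]).getD 4 0 % 2 ≠ ([1] : List ℕ).getD 4 0 % 2 := by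
  decide +kernel

theorem sr_pos : ∀ r ∈ sr, chevF4.IsPosRoot r := by decide +kernel

/-- **elements of `F₄(p)` of order `p ^ (j + 1)`** -/
theorem exists_of_run {p : ℕ} [Fact p.Prime] (j : ℕ)
    (h : (run p chevF4 ((List.replicate (p ^ j) sr).flatten) [1]).getD 4 0 % p ≠ ([1] : List ℕ).getD 4 0 % p) :
    ∃ x : ↥(chevF4.group (ZMod p)), orderOf x = p ^ (j + 1) := by
  have h1 := pow_ne_one (p := p) hF sr sr_good (p ^ j) [1] (k := 4) (by decide) h
  have hw : wd hF (ZMod p) sr ∈ chevF4.posUnipotent (ZMod p) := by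
    apply Subgroup.list_prod_mem
    intro x hx
    obtain ⟨r, hr, rfl⟩ := List.mem_map.1 hx
    exact xG_mem_posUnipotent hF (sr_pos r hr) _
  have hP : IsPGroup p (chevF4.posUnipotent (ZMod p)) := by
    refine IsPGroup.of_card (n := chevF4.nroots / 2) ?_
    rw [Cfsg.Agent.S1027.result chevF4 (by simp), ZMod.card]
  obtain ⟨i, hi⟩ := hP ⟨_, hw⟩
  have hi' : wd hF (ZMod p) sr ^ p ^ i = 1 := congrArg Subtype.val hi
  obtain ⟨l, -, hl⟩ := (Nat.dvd_prime_pow (Fact.out : p.Prime)).1 (orderOf_dvd_of_pow_eq_one hi')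
  have hjl : j + 1 ≤ l := by
    by_contra hlt
    apply h1
    apply orderOf_dvd_iff_pow_eq_one.1
    rw [hl]
    exact pow_dvd_pow p (by omega)
  obtain ⟨e, rfl⟩ := Nat.exists_eq_add_of_le hjl
  let g : ↥(chevF4.group (ZMod p)) := ⟨wd hF (ZMod p) sr, wd_mem hF (ZMod p) sr⟩
  have hg : orderOf g = p ^ (j + 1 + e) := by
    rw [← hl, ← Subgroup.orderOf_coe]
  have hp0 : 0 < p := (Fact.out : p.Prime).pos
  refine ⟨g ^ p ^ e, ?_⟩
  rw [orderOf_pow_of_dvd (pow_pos hp0 e).ne' (by rw [hg]; exact pow_dvd_pow p (by omega)), hg, pow_add,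
    Nat.mul_div_cancel _ (pow_pos hp0 e)]

/-- **an element of order `16` of `F₄(2)`** -/
theorem exists_sixteen : ∃ x : ↥(chevF4.group (ZMod 2)), orderOf x = 16 := by
  obtain ⟨x, hx⟩ := exists_of_run (p := 2) 3 run2
  exact ⟨x, hx⟩

/-- **an element of order `121` of `F₄(11)`** -/
theorem exists_121 : ∃ x : ↥(chevF4.group (ZMod 11)), orderOf x = 121 := by
  obtain ⟨x, hx⟩ := exists_of_run (p := 11) 1 (by rw [pow_one]; exact run11)
  exact ⟨x, hx⟩

end Cfsg.Agent.H500.F4Ord
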